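import Cfsg.Agent.Lib.Helper57.OE.Defs

set_option autoImplicit false
set_option linter.unusedSectionVars false

/-! # S1: a rational structure for the polar form is a rational structure for the quadratic form -/

namespace Cfsg.Agent.Lib.Helper35.OE

open Cfsg Cfsg.Geo Matrix Cfsg.Agent.Lib.Helper13.Asch Cfsg.Agent.Lib.Helper90.Sp
open Cfsg.Agent.Lib.Helper57.OE
open scoped Kronecker MatrixGroups

variable {ι : Type} [Fintype ι] [DecidableEq ι] {F : Type*} [Field F] {Q : (ι → F) → F}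

namespace S1aux

theorem mem_range_of_pow_card {K : Type*} [Field K] [Fintype K] {L : Type*} [Field L] [Algebra K L]
    (x : L) (hx : x ^ Fintype.card K = x) : ∃ a : K, algebraMap K L a = x := by
  classical
  by_contra hcon
  push Not at hcon
  have hne : (Polynomial.X ^ Fintype.card K - Polynomial.X : Polynomial L) ≠ 0 :=
    FiniteField.X_pow_card_sub_X_ne_zero L Fintype.one_lt_card
  apply hne
  apply Polynomial.eq_zero_of_natDegree_lt_card_of_eval_eq_zero' _
    (insert x (Finset.univ.image (algebraMap K L)))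
  · intro y hy
    rw [Finset.mem_insert] at hy
    rcases hy with rfl | hy
    · simp [hx]
    · rw [Finset.mem_image] at hy
      obtain ⟨a, _, rfl⟩ := hy
      simp [← map_pow, FiniteField.pow_card]
  · rw [FiniteField.X_pow_card_sub_X_natDegree_eq L Fintype.one_lt_card,
      Finset.card_insert_of_notMem,
      Finset.card_image_of_injective _ (algebraMap K L).injective, Finset.card_univ]
    · omega
    · intro h
      rw [Finset.mem_image] at h
      obtain ⟨a, _, ha⟩ := h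
      exact hcon a ha

/-- the Frobenius automorphism whose fixed field is `F₁` -/
theorem exists_sigma [Fintype F] (F₁ : Subfield F) : ∃ σ : F ≃+* F, ∀ x, σ x = x ↔ x ∈ F₁ := by
  classical
  obtain ⟨p, hp⟩ := CharP.exists F
  have hpp : Fact p.Prime := ⟨CharP.char_is_prime F p⟩
  have : Fintype F₁ := Fintype.ofFinite _
  have hp1 : CharP F₁ p := (RingHom.charP_iff (algebraMap F₁ F) (algebraMap F₁ F).injective p).2 hp
  obtain ⟨n, -, hn⟩ := FiniteField.card F₁ p
  have hinj : Function.Injective (iterateFrobenius F p n) := (iterateFrobenius F p n).injective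
  refine ⟨RingEquiv.ofBijective (iterateFrobenius F p n) (Finite.injective_iff_bijective.1 hinj),
    fun x => ?_⟩
  rw [RingEquiv.ofBijective_apply, iterateFrobenius_def, ← hn]
  constructor
  · intro hx
    obtain ⟨a, ha⟩ := mem_range_of_pow_card (K := F₁) x hx
    rw [← ha]
    exact a.2
  · intro hx
    have := FiniteField.pow_card (⟨x, hx⟩ : F₁)
    exact congrArg Subtype.val this

theorem bilin_expand {f : (ι → F) → (ι → F) → F} (hf : IsBilinearForm f) (u v : ι → F) :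
    f u v = ∑ i, ∑ j, u i * v j * f (Pi.single i 1) (Pi.single j 1) := by
  let B : LinearMap.BilinForm F (ι → F) :=
    LinearMap.mk₂ F f hf.add_left hf.smul_left hf.add_right hf.smul_right
  have hu : u = ∑ i, u i • (Pi.single i (1 : F) : ι → F) := by
    ext j
    simp [Finset.sum_apply, Pi.single_apply]
  have hv : v = ∑ i, v i • (Pi.single i (1 : F) : ι → F) := by
    ext j
    simp [Finset.sum_apply, Pi.single_apply]
  change B u v = ∑ i, ∑ j, u i * v j * B (Pi.single i 1) (Pi.single j 1)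
  conv_lhs => rw [hu, hv]
  simp only [map_sum, LinearMap.sum_apply, map_smul, LinearMap.smul_apply, smul_eq_mul]
  simp only [Finset.mul_sum]
  rw [Finset.sum_comm]
  refine Finset.sum_congr rfl fun i _ => ?_
  refine Finset.sum_congr rfl fun j _ => ?_
  ring

/-- an additive map which is `2`-semilinear is diagonal -/
theorem semilin_expand (g : (ι → F) → F) (hadd : ∀ x x', g (x + x') = g x + g x')
    (hsm : ∀ (c : F) x, g (c • x) = c ^ 2 * g x) (x : ι → F) :
    g x = ∑ i, x i ^ 2 * g (Pi.single i 1) := by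
  have h0 : g 0 = 0 := by
    have := hsm 0 0
    simpa using this
  let G : (ι → F) →+ F := { toFun := g, map_zero' := h0, map_add' := hadd }
  have hx : x = ∑ i, x i • (Pi.single i (1 : F) : ι → F) := by
    ext j
    simp [Finset.sum_apply, Pi.single_apply]
  have h1 : G x = ∑ i, G (x i • (Pi.single i (1 : F) : ι → F)) := by
    conv_lhs => rw [hx]
    exact map_sum G _ _
  change g x = _ at h1
  rw [h1]
  exact Finset.sum_congr rfl fun i _ => hsm _ _

theorem mem_subfield_form (F₁ : Subfield F) (P h : GL ι F) (hh : h ∈ subfieldSubgroup F₁ P) :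
    ∃ (M₀ : Matrix ι ι F) (c : F), c ≠ 0 ∧ (∀ i j, M₀ i j ∈ F₁) ∧
      ((P⁻¹ : GL ι F) : Matrix ι ι F) * (h : Matrix ι ι F) = c • (M₀ * ((P⁻¹ : GL ι F) : Matrix ι ι F)) := by
  obtain ⟨y, hy, rfl⟩ := hh
  obtain ⟨g0, ⟨g, rfl⟩, s, hs, rfl⟩ := Subgroup.mem_sup_of_normal_right.1 hy
  obtain ⟨c, hc⟩ := (mem_scalars_iff s).1 hs
  refine ⟨(g : Matrix ι ι F₁).map F₁.subtype, c, c.ne_zero, fun i j => (g.1 i j).2, ?_⟩
  change ((P⁻¹ : GL ι F) : Matrix ι ι F) * ((P * (Matrix.GeneralLinearGroup.map F₁.subtype g * s) * P⁻¹ : GL ι F) : Matrix ι ι F) = _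
  rw [← Units.val_mul]
  have : P⁻¹ * (P * (Matrix.GeneralLinearGroup.map F₁.subtype g * s) * P⁻¹)
      = Matrix.GeneralLinearGroup.map F₁.subtype g * s * P⁻¹ := by group
  rw [this, Units.val_mul, Units.val_mul, hc, Matrix.mul_smul, Matrix.mul_one, Matrix.smul_mul]
  rfl

end S1aux

open S1aux

/-- S1 -/
theorem quad_rational [Fintype F] (hQ : IsNondegenerateQuadraticForm Q)
    (hι : 2 ≤ Fintype.card ι) {H : Subgroup (GL ι F)} (hH : FixesQuadForm (matrixSet H) Q)
    (hirr : ActsIrreducibly (matrixSet H)) (F₁ : Subfield F) (P : GL ι F) (ζ : F) (hζ : ζ ≠ 0)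
    (hf : IsFormRationalStructure (QuadraticMap.polar Q) F₁ ζ P)
    (hHs : H ≤ subfieldSubgroup F₁ P) :
    IsQuadFormRationalStructure (fun v => ζ * Q v) F₁ P := by
  classical
  intro u hu
  change ζ * Q ((P : Matrix ι ι F) *ᵥ u) ∈ F₁
  by_cases h2 : (2 : F) = 0
  swap
  · have h := hf u u hu hu
    have h3 : ∀ v, QuadraticMap.polar Q v v = 2 * Q v := by
      intro v
      unfold QuadraticMap.polar
      have : v + v = (2 : F) • v := by rw [two_smul]
      rw [this, hQ.smul]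
      ring
    have h4 : ζ * Q ((P : Matrix ι ι F) *ᵥ u)
        = 2⁻¹ * (ζ * QuadraticMap.polar Q ((P : Matrix ι ι F) *ᵥ u) ((P : Matrix ι ι F) *ᵥ u)) := by
      rw [h3]
      field_simp
    rw [h4]
    exact F₁.mul_mem (F₁.inv_mem (by exact_mod_cast natCast_mem F₁ 2)) h
  have hchar : CharP F 2 := CharTwo.of_one_ne_zero_of_two_eq_zero one_ne_zero h2
  obtain ⟨σ, hσ⟩ := exists_sigma F₁
  have hσs : ∀ x ∈ F₁, σ.symm x = x := by
    intro x hx
    rw [RingEquiv.symm_apply_eq]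
    exact ((hσ x).2 hx).symm
  obtain ⟨R, hR⟩ : ∃ R : (ι → F) → F, ∀ w, R w = ζ * Q ((P : Matrix ι ι F) *ᵥ w) := ⟨_, fun _ => rfl⟩
  obtain ⟨g, hg⟩ : ∃ g : (ι → F) → (ι → F) → F, ∀ w z, g w z
      = ζ * QuadraticMap.polar Q ((P : Matrix ι ι F) *ᵥ w) ((P : Matrix ι ι F) *ᵥ z) :=
    ⟨_, fun _ _ => rfl⟩
  have hb := hQ.polar_bilinear
  have hgb : IsBilinearForm g := by
    constructor
    · intro x y v; simp only [hg, Matrix.mulVec_add, hb.add_left]; ring
    · intro c x v; simp only [hg, Matrix.mulVec_smul, hb.smul_left]; ring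
    · intro v x y; simp only [hg, Matrix.mulVec_add, hb.add_right]; ring
    · intro c v x; simp only [hg, Matrix.mulVec_smul, hb.smul_right]; ring
  have hgr : ∀ w z : ι → F, (∀ i, w i ∈ F₁) → (∀ i, z i ∈ F₁) → g w z ∈ F₁ := by
    intro w z hw hz
    rw [hg]
    exact hf w z hw hz
  have hsingle : ∀ i k : ι, (Pi.single i (1 : F) : ι → F) k ∈ F₁ := by
    intro i k
    rw [Pi.single_apply]
    split_ifs
    · exact F₁.one_mem
    · exact F₁.zero_mem
  have hRadd : ∀ w z, R (w + z) = R w + R z + g w z := by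
    intro w z
    simp only [hR, hg, Matrix.mulVec_add, QuadraticMap.polar]
    ring
  have hRsm : ∀ (c : F) w, R (c • w) = c ^ 2 * R w := by
    intro c w
    simp only [hR, Matrix.mulVec_smul, hQ.smul]
    ring
  have hgσ : ∀ w z : ι → F, σ (g (σ.symm ∘ w) (σ.symm ∘ z)) = g w z := by
    intro w z
    rw [bilin_expand hgb, bilin_expand hgb w z, map_sum]
    refine Finset.sum_congr rfl fun i _ => ?_
    rw [map_sum]
    refine Finset.sum_congr rfl fun j _ => ?_
    rw [map_mul, map_mul, Function.comp_apply, Function.comp_apply, RingEquiv.apply_symm_apply,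
      RingEquiv.apply_symm_apply, (hσ _).2 (hgr _ _ (hsingle i) (hsingle j))]
  obtain ⟨D, hD⟩ : ∃ D : (ι → F) → F, ∀ w, D w = R w - σ (R (σ.symm ∘ w)) := ⟨_, fun _ => rfl⟩
  have hcomp_add : ∀ w z : ι → F, σ.symm ∘ (w + z) = σ.symm ∘ w + σ.symm ∘ z := by
    intro w z; ext i; simp
  have hcomp_sm : ∀ (c : F) (w : ι → F), σ.symm ∘ (c • w) = σ.symm c • (σ.symm ∘ w) := by
    intro c w; ext i; simp
  have hDadd : ∀ w z, D (w + z) = D w + D z := by
    intro w z
    rw [hD, hD, hD, hcomp_add, hRadd, hRadd, map_add, map_add, hgσ]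
    ring
  have hDsm : ∀ (c : F) w, D (c • w) = c ^ 2 * D w := by
    intro c w
    rw [hD, hD, hcomp_sm, hRsm, hRsm, map_mul, map_pow, RingEquiv.apply_symm_apply]
    ring
  have hsq : ∀ i : ι, ∃ s : F, s ^ 2 = D (Pi.single i 1) := by
    intro i
    obtain ⟨s, hs⟩ := FiniteField.isSquare_of_char_two (F := F) (ringChar.eq F 2)
      (D (Pi.single i 1))
    exact ⟨s, by rw [hs, sq]⟩
  choose s hs using hsq
  have hDs : ∀ w, D w = (s ⬝ᵥ w) ^ 2 := by
    intro w
    rw [semilin_expand D hDadd hDsm w, dotProduct, CharTwo.sum_sq]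
    refine Finset.sum_congr rfl fun i _ => ?_
    rw [← hs i]
    ring
  -- a non-zero Gram entry
  have hne : ∃ i j, g (Pi.single i 1) (Pi.single j 1) ≠ 0 := by
    by_contra hcon
    push Not at hcon
    have hg0 : ∀ w z, g w z = 0 := by
      intro w z
      rw [bilin_expand hgb]
      simp [hcon]
    have hne : Nonempty ι := by
      rw [← Fintype.card_pos_iff]; omega
    obtain ⟨i0⟩ := hne
    have hv : (P : Matrix ι ι F) *ᵥ (Pi.single i0 1) ≠ 0 := by
      intro h0
      have : ((P⁻¹ : GL ι F) : Matrix ι ι F) *ᵥ ((P : Matrix ι ι F) *ᵥ (Pi.single i0 1)) = 0 := by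
        rw [h0, Matrix.mulVec_zero]
      rw [Matrix.mulVec_mulVec, ← Units.val_mul, inv_mul_cancel, Units.val_one,
        Matrix.one_mulVec] at this
      have h1 := congrFun this i0
      simp at h1
    obtain ⟨⟨x, hx⟩, -⟩ := hQ.nondegenerate _ hv
    apply hx
    have h1 := hg0 (((P⁻¹ : GL ι F) : Matrix ι ι F) *ᵥ x) (Pi.single i0 1)
    rw [hg, Matrix.mulVec_mulVec, ← Units.val_mul, mul_inv_cancel, Units.val_one,
      Matrix.one_mulVec] at h1
    exact (mul_eq_zero.1 h1).resolve_left hζ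
  obtain ⟨i1, j1, hij⟩ := hne
  -- invariance
  have hinv : ∀ h ∈ H, ∀ v : ι → F,
      s ⬝ᵥ (((P⁻¹ : GL ι F) : Matrix ι ι F) *ᵥ ((h : Matrix ι ι F) *ᵥ v))
        = s ⬝ᵥ (((P⁻¹ : GL ι F) : Matrix ι ι F) *ᵥ v) := by
    intro h hh v
    obtain ⟨M₀, c, hc0, hM₀, hk⟩ := mem_subfield_form F₁ P h (hHs hh)
    obtain ⟨w, hw⟩ : ∃ w, w = ((P⁻¹ : GL ι F) : Matrix ι ι F) *ᵥ v := ⟨_, rfl⟩
    have hkw : ∀ v : ι → F, ((P⁻¹ : GL ι F) : Matrix ι ι F) *ᵥ ((h : Matrix ι ι F) *ᵥ v)
        = c • (M₀ *ᵥ (((P⁻¹ : GL ι F) : Matrix ι ι F) *ᵥ v)) := by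
      intro v
      rw [Matrix.mulVec_mulVec, hk, Matrix.smul_mulVec, ← Matrix.mulVec_mulVec]
    have hPk : ∀ w : ι → F, (P : Matrix ι ι F) *ᵥ (c • (M₀ *ᵥ w))
        = (h : Matrix ι ι F) *ᵥ ((P : Matrix ι ι F) *ᵥ w) := by
      intro w
      have := hkw ((P : Matrix ι ι F) *ᵥ w)
      rw [Matrix.mulVec_mulVec (w) ((P⁻¹ : GL ι F) : Matrix ι ι F), ← Units.val_mul, inv_mul_cancel,
        Units.val_one, Matrix.one_mulVec] at this
      rw [← this, Matrix.mulVec_mulVec, ← Units.val_mul, mul_inv_cancel, Units.val_one,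
        Matrix.one_mulVec]
    have hRk : ∀ w, c ^ 2 * R (M₀ *ᵥ w) = R w := by
      intro w
      rw [← hRsm, hR, hR, hPk]
      rw [hH _ ⟨h, hh, rfl⟩]
    have hgk : ∀ w z, c ^ 2 * g (M₀ *ᵥ w) (M₀ *ᵥ z) = g w z := by
      intro w z
      have h1 := hRadd (M₀ *ᵥ w) (M₀ *ᵥ z)
      rw [← Matrix.mulVec_add] at h1
      have h2 := hRadd w z
      rw [← hRk (w + z), ← hRk w, ← hRk z, h1] at h2
      linear_combination h2
    have hMrat : ∀ w : ι → F, (∀ i, w i ∈ F₁) → ∀ i, (M₀ *ᵥ w) i ∈ F₁ := by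
      intro w hw i
      exact F₁.sum_mem fun j _ => F₁.mul_mem (hM₀ i j) (hw j)
    have hc2 : c ^ 2 ∈ F₁ := by
      have h1 := hgk (Pi.single i1 1) (Pi.single j1 1)
      have h3 : g (M₀ *ᵥ Pi.single i1 1) (M₀ *ᵥ Pi.single j1 1) ≠ 0 := by
        intro h0
        rw [h0, mul_zero] at h1
        exact hij h1.symm
      have h4 : c ^ 2 = g (Pi.single i1 1) (Pi.single j1 1) *
          (g (M₀ *ᵥ Pi.single i1 1) (M₀ *ᵥ Pi.single j1 1))⁻¹ := by
        rw [← h1]
        field_simp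
      rw [h4]
      exact F₁.mul_mem (hgr _ _ (hsingle i1) (hsingle j1))
        (F₁.inv_mem (hgr _ _ (hMrat _ (hsingle i1)) (hMrat _ (hsingle j1))))
    have hMσ : ∀ w : ι → F, σ.symm ∘ (M₀ *ᵥ w) = M₀ *ᵥ (σ.symm ∘ w) := by
      intro w
      ext i
      simp only [Function.comp_apply, Matrix.mulVec, dotProduct, map_sum, map_mul]
      refine Finset.sum_congr rfl fun j _ => ?_
      rw [hσs _ (hM₀ i j)]
    have hDk : ∀ w, c ^ 2 * D (M₀ *ᵥ w) = D w := by
      intro w
      rw [hD, hD, hMσ, mul_sub, hRk]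
      congr 1
      rw [← hRk (σ.symm ∘ w), map_mul, (hσ _).2 hc2]
    have h5 : (s ⬝ᵥ (c • (M₀ *ᵥ w))) ^ 2 = (s ⬝ᵥ w) ^ 2 := by
      rw [← hDs, ← hDs, hDsm, hDk]
    rw [hkw, ← hw]
    have h6 : (s ⬝ᵥ (c • (M₀ *ᵥ w)) - s ⬝ᵥ w) ^ 2 = 0 := by
      rw [CharTwo.sub_eq_add, CharTwo.add_sq, h5, CharTwo.add_self_eq_zero]
    exact sub_eq_zero.1 (pow_eq_zero_iff (two_ne_zero) |>.1 h6)
  let lam : (ι → F) →ₗ[F] F :=
    { toFun := fun v => s ⬝ᵥ (((P⁻¹ : GL ι F) : Matrix ι ι F) *ᵥ v)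
      map_add' := by intro u v; simp [Matrix.mulVec_add, dotProduct_add]
      map_smul' := by intro c v; simp [Matrix.mulVec_smul, dotProduct_smul] }
  have hlam : ∀ v, lam v = s ⬝ᵥ (((P⁻¹ : GL ι F) : Matrix ι ι F) *ᵥ v) := fun _ => rfl
  have hker := hirr (LinearMap.ker lam) (by
    rintro _ ⟨h, hh, rfl⟩
    rintro _ ⟨v, hv, rfl⟩
    rw [LinearMap.mem_ker, Matrix.toLin'_apply, hlam, hinv h hh]
    exact hv)
  rcases hker with hk | hk
  · exfalso
    have h1 := LinearMap.finrank_range_add_finrank_ker lam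
    rw [hk, finrank_bot, add_zero, Module.finrank_fintype_fun_eq_card] at h1
    have h3 : Module.finrank F (LinearMap.range lam) ≤ 1 := by
      have := Submodule.finrank_le (LinearMap.range lam)
      rwa [Module.finrank_self] at this
    omega
  · have h1 : lam ((P : Matrix ι ι F) *ᵥ u) = 0 := by
      have : (P : Matrix ι ι F) *ᵥ u ∈ LinearMap.ker lam := by rw [hk]; trivial
      exact this
    rw [hlam, Matrix.mulVec_mulVec, ← Units.val_mul, inv_mul_cancel, Units.val_one,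
      Matrix.one_mulVec] at h1
    have h3 : D u = 0 := by rw [hDs, h1]; simp
    have h4 : σ.symm ∘ u = u := by
      ext i
      exact hσs _ (hu i)
    rw [hD, h4, sub_eq_zero] at h3
    rw [← hR]
    exact (hσ _).1 h3.symm

end Cfsg.Agent.Lib.Helper35.OE
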