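import Cfsg.Agent.Lib.Helper57.OE.Defs
import Cfsg.Agent.Lib.Helper99.Sp.T1
import Cfsg.Agent.Lib.Helper45.QuadBaseChange

set_option autoImplicit false

/-! # T4: characteristic 2, alternating ⊗ alternating: `Q` vanishes on pure tensors -/

namespace Cfsg.Agent.Lib.Helper35.OE

open Cfsg Cfsg.Geo Matrix Cfsg.Agent.Lib.Helper13.Asch Cfsg.Agent.Lib.Helper90.Sp
open Cfsg.Agent.Lib.Helper57.OE
open scoped Kronecker MatrixGroups

variable {ι : Type} [Fintype ι] [DecidableEq ι] {F : Type*} [Field F] {Q : (ι → F) → F}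

namespace T4aux

theorem pureV_add_left {a b : ℕ} (e : ι ≃ Fin a × Fin b) (P : GL ι F) (x x' : Fin a → F)
    (y : Fin b → F) : pureV e P (x + x') y = pureV e P x y + pureV e P x' y := by
  unfold pureV
  rw [← Matrix.mulVec_add]
  congr 1
  ext i
  simp [add_mul]

theorem pureV_add_right {a b : ℕ} (e : ι ≃ Fin a × Fin b) (P : GL ι F) (x : Fin a → F)
    (y y' : Fin b → F) : pureV e P x (y + y') = pureV e P x y + pureV e P x y' := by
  unfold pureV
  rw [← Matrix.mulVec_add]
  congr 1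
  ext i
  simp [mul_add]

theorem pureV_smul_left {a b : ℕ} (e : ι ≃ Fin a × Fin b) (P : GL ι F) (c : F) (x : Fin a → F)
    (y : Fin b → F) : pureV e P (c • x) y = c • pureV e P x y := by
  unfold pureV
  rw [← Matrix.mulVec_smul]
  congr 1
  ext i
  simp [mul_assoc]

theorem pureV_smul_right {a b : ℕ} (e : ι ≃ Fin a × Fin b) (P : GL ι F) (c : F) (x : Fin a → F)
    (y : Fin b → F) : pureV e P x (c • y) = c • pureV e P x y := by
  unfold pureV
  rw [← Matrix.mulVec_smul]
  congr 1
  ext i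
  simp [mul_left_comm]

theorem tensGram_pure' {f : (ι → F) → (ι → F) → F} {a b : ℕ} {e : ι ≃ Fin a × Fin b} {P : GL ι F}
    {G₁ : Matrix (Fin a) (Fin a) F} {G₂ : Matrix (Fin b) (Fin b) F} (h : TensGram f e P G₁ G₂)
    (x x' : Fin a → F) (y y' : Fin b → F) :
    f (pureV e P x y) (pureV e P x' y') = (x ⬝ᵥ (G₁ *ᵥ x')) * (y ⬝ᵥ (G₂ *ᵥ y')) := by
  unfold pureV
  rw [h]
  simp only [formOfGram, id, Matrix.kroneckerMap_apply, Fintype.sum_prod_type, dotProduct,
    Matrix.mulVec]
  rw [Finset.sum_mul_sum]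
  refine Finset.sum_congr rfl fun i _ => ?_
  refine Finset.sum_congr rfl fun j _ => ?_
  rw [Finset.mul_sum, Finset.mul_sum, Finset.sum_mul_sum]
  refine Finset.sum_congr rfl fun i' _ => ?_
  refine Finset.sum_congr rfl fun j' _ => ?_
  ring

theorem Q_add' (Q : (ι → F) → F) (u v : ι → F) :
    Q (u + v) = Q u + Q v + QuadraticMap.polar Q u v := by
  unfold QuadraticMap.polar
  ring

/-- an additive map which is `2`-semilinear is diagonal -/
theorem semilin_expand {n : ℕ} (g : (Fin n → F) → F) (hadd : ∀ x x', g (x + x') = g x + g x')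
    (hsm : ∀ (c : F) x, g (c • x) = c ^ 2 * g x) (x : Fin n → F) :
    g x = ∑ i, x i ^ 2 * g (Pi.single i 1) := by
  have h0 : g 0 = 0 := by
    have := hsm 0 0
    simpa using this
  let G : (Fin n → F) →+ F := { toFun := g, map_zero' := h0, map_add' := hadd }
  have hx : x = ∑ i, x i • (Pi.single i (1 : F) : Fin n → F) := by
    ext j
    simp [Finset.sum_apply, Pi.single_apply]
  have h1 : G x = ∑ i, G (x i • (Pi.single i (1 : F) : Fin n → F)) := by
    conv_lhs => rw [hx]
    exact map_sum G _ _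
  change g x = _ at h1
  rw [h1]
  exact Finset.sum_congr rfl fun i _ => hsm _ _

end T4aux

open T4aux

/-- T4 -/
theorem sing_pure_of_alternating [Fintype F] (h2 : (2 : F) = 0) (hι : 2 ≤ Fintype.card ι)
    (hQ : IsNondegenerateQuadraticForm Q) {H : Subgroup (GL ι F)}
    (hH : FixesQuadForm (matrixSet H) Q) (hirr : ActsIrreducibly (matrixSet H)) {a b : ℕ}
    (e : ι ≃ Fin a × Fin b) (P : GL ι F) {G₁ : Matrix (Fin a) (Fin a) F}
    {G₂ : Matrix (Fin b) (Fin b) F} (hG : TensGram (QuadraticMap.polar Q) e P G₁ G₂)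
    (hs1 : G₁ᵀ = G₁) (hs2 : G₂ᵀ = G₂) (hd1 : ∀ i, G₁ i i = 0) (hd2 : ∀ j, G₂ j j = 0)
    (hHt : H ≤ tensorProductSubgroup a b e P) (x : Fin a → F) (y : Fin b → F) :
    Q (pureV e P x y) = 0 := by
  classical
  have : CharP F 2 := CharTwo.of_one_ne_zero_of_two_eq_zero one_ne_zero h2
  have hxx : ∀ x : Fin a → F, x ⬝ᵥ (G₁ *ᵥ x) = 0 := by
    intro x
    refine Cfsg.Agent.Lib.Helper45.quad_eq_zero_of_alt G₁ hd1 (fun j k => ?_) x
    have : G₁ k j = G₁ j k := by
      conv_rhs => rw [← hs1]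
      rfl
    rw [this, ← two_mul, h2, zero_mul]
  have hyy : ∀ y : Fin b → F, y ⬝ᵥ (G₂ *ᵥ y) = 0 := by
    intro y
    refine Cfsg.Agent.Lib.Helper45.quad_eq_zero_of_alt G₂ hd2 (fun j k => ?_) y
    have : G₂ k j = G₂ j k := by
      conv_rhs => rw [← hs2]
      rfl
    rw [this, ← two_mul, h2, zero_mul]
  -- additivity
  have haddx : ∀ (y : Fin b → F) (x x' : Fin a → F),
      Q (pureV e P (x + x') y) = Q (pureV e P x y) + Q (pureV e P x' y) := by
    intro y x x'
    rw [pureV_add_left, Q_add' Q, tensGram_pure' hG, hyy, mul_zero, add_zero]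
  have haddy : ∀ (x : Fin a → F) (y y' : Fin b → F),
      Q (pureV e P x (y + y')) = Q (pureV e P x y) + Q (pureV e P x y') := by
    intro x y y'
    rw [pureV_add_right, Q_add' Q, tensGram_pure' hG, hxx, zero_mul, add_zero]
  have hsmx : ∀ (y : Fin b → F) (c : F) (x : Fin a → F),
      Q (pureV e P (c • x) y) = c ^ 2 * Q (pureV e P x y) := by
    intro y c x
    rw [pureV_smul_left, hQ.smul]
  have hsmy : ∀ (x : Fin a → F) (c : F) (y : Fin b → F),
      Q (pureV e P x (c • y)) = c ^ 2 * Q (pureV e P x y) := by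
    intro x c y
    rw [pureV_smul_right, hQ.smul]
  -- square roots
  have hsq : ∀ p : Fin a × Fin b, ∃ s : F,
      s ^ 2 = Q (pureV e P (Pi.single p.1 1) (Pi.single p.2 1)) := by
    intro p
    obtain ⟨s, hs⟩ := FiniteField.isSquare_of_char_two (F := F) (ringChar.eq F 2)
      (Q (pureV e P (Pi.single p.1 1) (Pi.single p.2 1)))
    exact ⟨s, by rw [hs, sq]⟩
  choose s hs using hsq
  let lam : (ι → F) →ₗ[F] F :=
    { toFun := fun v => (fun i => s (e i)) ⬝ᵥ (((P⁻¹ : GL ι F) : Matrix ι ι F) *ᵥ v)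
      map_add' := by intro u v; simp [Matrix.mulVec_add, dotProduct_add]
      map_smul' := by intro c v; simp [Matrix.mulVec_smul, dotProduct_smul] }
  have hlam : ∀ v, lam v = (fun i => s (e i)) ⬝ᵥ (((P⁻¹ : GL ι F) : Matrix ι ι F) *ᵥ v) :=
    fun _ => rfl
  have hlam_pure : ∀ (x : Fin a → F) (y : Fin b → F),
      lam (pureV e P x y) = ∑ i, ∑ j, s (i, j) * (x i * y j) := by
    intro x y
    rw [hlam]
    unfold pureV
    rw [Matrix.mulVec_mulVec, ← Units.val_mul, inv_mul_cancel, Units.val_one, Matrix.one_mulVec]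
    simp only [dotProduct, Function.comp_apply]
    rw [Equiv.sum_comp e (fun p : Fin a × Fin b => s p * (x p.1 * y p.2)), Fintype.sum_prod_type]
  have hQlam : ∀ (x : Fin a → F) (y : Fin b → F),
      Q (pureV e P x y) = (lam (pureV e P x y)) ^ 2 := by
    intro x y
    rw [hlam_pure, CharTwo.sum_sq,
      semilin_expand (fun x => Q (pureV e P x y)) (haddx y) (hsmx y) x]
    refine Finset.sum_congr rfl fun i _ => ?_
    rw [CharTwo.sum_sq,
      semilin_expand (fun y => Q (pureV e P (Pi.single i 1) y)) (haddy _) (hsmy _) y,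
      Finset.mul_sum]
    refine Finset.sum_congr rfl fun j _ => ?_
    rw [← hs (i, j)]
    ring
  -- invariance
  have hinv_pure : ∀ h ∈ H, ∀ (x : Fin a → F) (y : Fin b → F),
      lam ((h : Matrix ι ι F) *ᵥ pureV e P x y) = lam (pureV e P x y) := by
    intro h hh x y
    obtain ⟨α, β, hαβ⟩ := (Cfsg.Agent.Lib.Helper35.Asch.mem_tensor_iff e P h).1 (hHt hh)
    have h1 : (h : Matrix ι ι F) *ᵥ pureV e P x y
        = pureV e P ((α : Matrix _ _ F) *ᵥ x) ((β : Matrix _ _ F) *ᵥ y) := by
      rw [hαβ]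
      unfold pureV
      rw [Cfsg.Agent.Lib.Helper99.Sp.conj_mulVec]
      congr 2
      ext p
      simp only [Matrix.mulVec, dotProduct, Matrix.kroneckerMap_apply, Fintype.sum_prod_type,
        Finset.sum_mul, Finset.mul_sum]
      rw [Finset.sum_comm]
      refine Finset.sum_congr rfl fun i _ => ?_
      refine Finset.sum_congr rfl fun j _ => ?_
      ring
    have h3 : (lam ((h : Matrix ι ι F) *ᵥ pureV e P x y)) ^ 2 = (lam (pureV e P x y)) ^ 2 := by
      rw [← hQlam, h1, ← hQlam, ← h1]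
      exact hH _ ⟨h, hh, rfl⟩ _
    have h4 : (lam ((h : Matrix ι ι F) *ᵥ pureV e P x y) - lam (pureV e P x y)) ^ 2 = 0 := by
      rw [CharTwo.sub_eq_add, CharTwo.add_sq, h3, CharTwo.add_self_eq_zero]
    exact sub_eq_zero.1 (pow_eq_zero_iff (two_ne_zero) |>.1 h4)
  have hspan : ∀ v : ι → F, v = ∑ i, (((P⁻¹ : GL ι F) : Matrix ι ι F) *ᵥ v) i •
      pureV e P (Pi.single (e i).1 1) (Pi.single (e i).2 1) := by
    intro v
    have hb : ∀ i, pureV e P (Pi.single (e i).1 1) (Pi.single (e i).2 1)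
        = (P : Matrix ι ι F) *ᵥ (Pi.single i 1) := by
      intro i
      unfold pureV
      congr 1
      ext k
      simp only [Function.comp_apply, Pi.single_apply]
      by_cases hk : k = i
      · subst hk; simp
      · have : e k ≠ e i := fun h => hk (e.injective h)
        rw [if_neg hk]
        by_cases h1 : (e k).1 = (e i).1
        · have h2 : (e k).2 ≠ (e i).2 := fun h2 => this (Prod.ext h1 h2)
          simp [h2]
        · simp [h1]
    simp only [hb]
    simp only [← Matrix.mulVec_smul]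
    rw [← Matrix.mulVec_sum]
    have : ∑ i, (((P⁻¹ : GL ι F) : Matrix ι ι F) *ᵥ v) i • (Pi.single i (1 : F) : ι → F)
        = ((P⁻¹ : GL ι F) : Matrix ι ι F) *ᵥ v := by
      ext j
      simp [Finset.sum_apply, Pi.single_apply]
    rw [this, Matrix.mulVec_mulVec, ← Units.val_mul, mul_inv_cancel, Units.val_one,
      Matrix.one_mulVec]
  have hinv : ∀ h ∈ H, ∀ v, lam ((h : Matrix ι ι F) *ᵥ v) = lam v := by
    intro h hh v
    conv_lhs => rw [hspan v]
    conv_rhs => rw [hspan v]
    rw [Matrix.mulVec_sum, map_sum, map_sum]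
    refine Finset.sum_congr rfl fun i _ => ?_
    rw [Matrix.mulVec_smul, map_smul, map_smul, hinv_pure h hh]
  have hker := hirr (LinearMap.ker lam) (by
    rintro _ ⟨h, hh, rfl⟩
    rintro _ ⟨v, hv, rfl⟩
    rw [LinearMap.mem_ker, Matrix.toLin'_apply, hinv h hh]
    exact hv)
  rcases hker with hk | hk
  · exfalso
    have h1 := LinearMap.finrank_range_add_finrank_ker lam
    rw [hk, finrank_bot, add_zero, Module.finrank_fintype_fun_eq_card] at h1
    have h3 : Module.finrank F (LinearMap.range lam) ≤ 1 := by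
      have := Submodule.finrank_le (LinearMap.range lam)
      rwa [Module.finrank_self] at this
    omega
  · have : lam (pureV e P x y) = 0 := by
      have : pureV e P x y ∈ LinearMap.ker lam := by rw [hk]; trivial
      exact this
    rw [hQlam, this]
    simp

end Cfsg.Agent.Lib.Helper35.OE
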