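import Cfsg.Agent.Lib.Helper57.OE.Base
import Cfsg.Agent.Lib.Helper86.OE.N0
import Cfsg.Agent.Lib.Helper98.OE.P3b
import Cfsg.Agent.Lib.Helper35.OE.S1

set_option autoImplicit false
set_option linter.unusedSectionVars false

/-! # N5: `Ω(Q)` is not contained in a subfield subgroup -/

namespace Cfsg.Agent.Lib.Helper35.OE

open Cfsg Cfsg.Geo Matrix Cfsg.Agent.Lib.Helper13.Asch Cfsg.Agent.Lib.Helper90.Sp
open Cfsg.Agent.Lib.Helper57.OE
open scoped Kronecker MatrixGroups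

variable {ι : Type} [Fintype ι] [DecidableEq ι] {F : Type*} [Field F] {Q : (ι → F) → F}

theorem exists_not_mem_subfield' [Fintype F] (F₀ : Subfield F) (r : ℕ) (hr : r.Prime)
    (hcard : Fintype.card F = Nat.card F₀ ^ r) : ∃ θ : F, θ ∉ F₀ := by
  by_contra hcon
  push Not at hcon
  have htop : F₀ = ⊤ := by
    ext x
    simp [hcon x]
  have h1 : Nat.card F₀ = Fintype.card F := by
    rw [htop, ← Nat.card_eq_fintype_card]
    exact Nat.card_congr (Subfield.topEquiv (K := F)).toEquiv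
  rw [h1] at hcard
  have h2 : 1 < Fintype.card F := Fintype.one_lt_card
  have h3 : (Fintype.card F) ^ 1 < (Fintype.card F) ^ r := Nat.pow_lt_pow_right h2 hr.one_lt
  rw [pow_one] at h3
  omega

/-- N5 -/
theorem not_le_subfield [Fintype F] (hQ : IsNondegenerateQuadraticForm Q)
    (hι : 7 ≤ Fintype.card ι) (F₀ : Subfield F) (r : ℕ) (hr : r.Prime)
    (hcard : Fintype.card F = Nat.card F₀ ^ r) (P : GL ι F) (ζ : F) (hζ : ζ ≠ 0)
    (hP : IsQuadFormRationalStructure (fun v => ζ * Q v) F₀ P) :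
    ¬ omegaGL Q ≤ subfieldSubgroup F₀ P := by
  intro hle
  obtain ⟨e, f, he, hf, hQe, hQf, hef, hee, hff⟩ :=
    Cfsg.Agent.Lib.Helper98.OE.exists_rational_frame hQ F₀ P ζ hζ hP 3 (by omega)
  obtain ⟨θ, hθ⟩ := exists_not_mem_subfield' F₀ r hr hcard
  have hb := hQ.polar_bilinear
  have hne : ∀ k : Fin 3, ∃ i, e k i ≠ 0 := by
    intro k
    by_contra hcon
    push Not at hcon
    have h0 : e k = 0 := funext hcon
    have h1 := hef k k
    rw [h0, Matrix.mulVec_zero, if_pos rfl] at h1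
    have h3 : QuadraticMap.polar Q 0 ((P : Matrix ι ι F) *ᵥ f k) = 0 := by
      have := hb.smul_left 0 0 ((P : Matrix ι ι F) *ᵥ f k)
      simpa using this
    rw [h3, mul_zero] at h1
    exact zero_ne_one h1
  obtain ⟨u, hu⟩ : ∃ u, u = (P : Matrix ι ι F) *ᵥ e 0 := ⟨_, rfl⟩
  obtain ⟨v, hv⟩ : ∃ v, v = (θ * ζ) • ((P : Matrix ι ι F) *ᵥ e 1) := ⟨_, rfl⟩
  have hQu : Q u = 0 := by rw [hu]; exact hQe 0
  have hQv : Q v = 0 := by rw [hv, hQ.smul, hQe 1, mul_zero]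
  have huv : QuadraticMap.polar Q u v = 0 := by
    rw [hu, hv, hb.smul_right, hee, mul_zero]
  obtain ⟨g, hg, hgx⟩ := Cfsg.Agent.Lib.Helper86.OE.exists_eichler hQ (by omega) u v hQu huv
  obtain ⟨M₀, c, hc0, hM₀, hk⟩ := S1aux.mem_subfield_form F₀ P g (hle hg)
  have hkw : ∀ w : ι → F, ((P⁻¹ : GL ι F) : Matrix ι ι F) *ᵥ ((g : Matrix ι ι F) *ᵥ
      ((P : Matrix ι ι F) *ᵥ w)) = c • (M₀ *ᵥ w) := by
    intro w
    rw [Matrix.mulVec_mulVec, hk, Matrix.smul_mulVec, ← Matrix.mulVec_mulVec,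
      Matrix.mulVec_mulVec w, ← Units.val_mul, inv_mul_cancel, Units.val_one, Matrix.one_mulVec]
  have hPP : ∀ w : ι → F, ((P⁻¹ : GL ι F) : Matrix ι ι F) *ᵥ ((P : Matrix ι ι F) *ᵥ w) = w := by
    intro w
    rw [Matrix.mulVec_mulVec, ← Units.val_mul, inv_mul_cancel, Units.val_one, Matrix.one_mulVec]
  have hMrat : ∀ w : ι → F, (∀ i, w i ∈ F₀) → ∀ i, (M₀ *ᵥ w) i ∈ F₀ := by
    intro w hw i
    exact F₀.sum_mem fun j _ => F₀.mul_mem (hM₀ i j) (hw j)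
  -- `g` fixes `P e₂`
  have h2 : (g : Matrix ι ι F) *ᵥ ((P : Matrix ι ι F) *ᵥ e 2) = (P : Matrix ι ι F) *ᵥ e 2 := by
    rw [hgx, hu, hv, hb.smul_left, hee, hee]
    simp
  have hcF : c ∈ F₀ := by
    have h3 := hkw (e 2)
    rw [h2, hPP] at h3
    obtain ⟨i, hi⟩ := hne 2
    have h4 := congrFun h3 i
    simp only [Pi.smul_apply, smul_eq_mul] at h4
    have h5 : (M₀ *ᵥ e 2) i ≠ 0 := by
      intro h0
      rw [h0, mul_zero] at h4
      exact hi h4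
    have h6 : c = e 2 i * ((M₀ *ᵥ e 2) i)⁻¹ := by
      rw [h4]
      field_simp
    rw [h6]
    exact F₀.mul_mem (he 2 i) (F₀.inv_mem (hMrat _ (he 2) i))
  -- the image of `P f₁`
  have h01 : QuadraticMap.polar Q ((P : Matrix ι ι F) *ᵥ e 0) ((P : Matrix ι ι F) *ᵥ f 1) = 0 := by
    have := hef 0 1
    rw [if_neg (by decide)] at this
    exact (mul_eq_zero.1 this).resolve_left hζ
  have h11 := hef 1 1
  rw [if_pos rfl] at h11
  have h7 : (g : Matrix ι ι F) *ᵥ ((P : Matrix ι ι F) *ᵥ f 1)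
      = (P : Matrix ι ι F) *ᵥ (f 1 + θ • e 0) := by
    rw [hgx, hu, hv, hb.smul_left, h01, mul_assoc, h11, Matrix.mulVec_add, Matrix.mulVec_smul]
    simp
  have h8 := hkw (f 1)
  rw [h7, hPP] at h8
  obtain ⟨i, hi⟩ := hne 0
  have h9 := congrFun h8 i
  simp only [Pi.add_apply, Pi.smul_apply, smul_eq_mul] at h9
  apply hθ
  have h10 : θ = (c * (M₀ *ᵥ f 1) i - f 1 i) * (e 0 i)⁻¹ := by
    rw [← h9]
    field_simp
    ring
  rw [h10]
  exact F₀.mul_mem (F₀.sub_mem (F₀.mul_mem hcF (hMrat _ (hf 1) i)) (hf 1 i)) (F₀.inv_mem (he 0 i))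

end Cfsg.Agent.Lib.Helper35.OE
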