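import Cfsg.Agent.Lib.Helper57.OE.Base
import Cfsg.Agent.Lib.Helper86.OE.N0
import Cfsg.Agent.Lib.Helper44.Isotropy
import Cfsg.Agent.Lib.Helper94.QuadWrap

set_option autoImplicit false
set_option linter.unusedSectionVars false

/-! # N6: `Ω(Q)` does not stabilise an orthogonal decomposition into blocks of dimension `≥ 3` -/

namespace Cfsg.Agent.Lib.Helper35.OE

open Cfsg Cfsg.Geo Matrix Cfsg.Agent.Lib.Helper13.Asch Cfsg.Agent.Lib.Helper90.Sp
open Cfsg.Agent.Lib.Helper57.OE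
open scoped Kronecker MatrixGroups

variable {ι : Type} [Fintype ι] [DecidableEq ι] {F : Type*} [Field F] {Q : (ι → F) → F}

/-- N6 -/
theorem not_le_decomp [Fintype F] (hQ : IsNondegenerateQuadraticForm Q)
    (hι : 5 ≤ Fintype.card ι) {t k : ℕ} (hk : 3 ≤ k) (D : Fin t → Submodule F (ι → F))
    (hD : IsOrthogonalMDecomposition Q k D) : ¬ omegaGL Q ≤ decompositionStabilizer D := by
  intro hle
  have ht := hD.decomp.decomp.two_le
  obtain ⟨i0, hi0⟩ : ∃ i0 : Fin t, i0 = ⟨0, by omega⟩ := ⟨_, rfl⟩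
  obtain ⟨i1, hi1⟩ : ∃ i1 : Fin t, i1 = ⟨1, by omega⟩ := ⟨_, rfl⟩
  have h01 : i0 ≠ i1 := by
    rw [hi0, hi1]
    intro h
    simp at h
  have hb := hQ.polar_bilinear
  obtain ⟨c, hc, hc0, hQc⟩ := Cfsg.Agent.Lib.Helper44.exists_singular_of_finrank
    (Cfsg.Agent.Lib.Helper94.quadOf Q hQ) (D i0) (by rw [hD.decomp.decomp.finrank_eq]; exact hk)
  have hQc' : Q c = 0 := hQc
  obtain ⟨c', hc', hcc'⟩ := (hD.decomp.nondegenerate i0 c hc hc0).2
  have hD1 : D i1 ≠ ⊥ := by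
    intro h
    have := hD.decomp.decomp.finrank_eq i1
    rw [h, finrank_bot] at this
    omega
  obtain ⟨a, ha, ha0⟩ := Submodule.exists_mem_ne_zero_of_ne_bot hD1
  have hca : QuadraticMap.polar Q c a = 0 := hD.decomp.orthogonal i0 i1 h01 c hc a ha
  have hac' : QuadraticMap.polar Q a c' = 0 := hD.decomp.orthogonal i1 i0 h01.symm a ha c' hc'
  obtain ⟨g, hg, hgx⟩ := Cfsg.Agent.Lib.Helper86.OE.exists_eichler hQ hι c a hQc' hca
  obtain ⟨σ, hσ⟩ := hle hg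
  obtain ⟨l, hl⟩ : ∃ l, l = QuadraticMap.polar Q c c' := ⟨_, rfl⟩
  rw [← hl] at hcc'
  obtain ⟨x₀, hx₀⟩ : ∃ x₀, x₀ = c' - (Q a * l) • c := ⟨_, rfl⟩
  obtain ⟨x₁, hx₁⟩ : ∃ x₁, x₁ = -(l • a) := ⟨_, rfl⟩
  have hgc : (g : Matrix ι ι F) *ᵥ c' = x₀ + x₁ := by
    rw [hgx, hac', ← hl, hx₀, hx₁]
    module
  have hx₀D : x₀ ∈ D i0 := by
    rw [hx₀]
    exact (D i0).sub_mem hc' ((D i0).smul_mem _ hc)
  have hx₁D : x₁ ∈ D i1 := by
    rw [hx₁]
    exact (D i1).neg_mem ((D i1).smul_mem _ ha)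
  have hx₁0 : x₁ ≠ 0 := by
    rw [hx₁, neg_ne_zero]
    exact smul_ne_zero hcc' ha0
  have hcc : QuadraticMap.polar Q c c = 0 := by rw [← two_mul_Q hQ, hQc', mul_zero]
  have hx₀0 : x₀ ≠ 0 := by
    intro h0
    have h1 : QuadraticMap.polar Q c x₀ = l := by
      have h2 : c' = x₀ + (Q a * l) • c := by rw [hx₀]; abel
      rw [hl, h2, hb.add_right, hb.smul_right, hcc, mul_zero, add_zero]
    rw [h0] at h1
    have h3 : QuadraticMap.polar Q c 0 = 0 := by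
      have := hb.smul_right 0 c 0
      simpa using this
    exact hcc' (by rw [← h1, h3])
  have hmem : (g : Matrix ι ι F) *ᵥ c' ∈ D (σ i0) := by
    rw [← hσ i0]
    exact ⟨c', hc', by rw [Matrix.toLin'_apply]⟩
  have hdis := Submodule.disjoint_def.1 (hD.decomp.decomp.indep i0)
  have hle1 : ∀ j, j ≠ i0 → D j ≤ ⨆ (j : Fin t) (_ : j ≠ i0), D j := by
    intro j hj
    exact le_iSup₂ (f := fun (l : Fin t) (_ : l ≠ i0) => D l) j hj
  by_cases hj : σ i0 = i0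
  · rw [hj, hgc] at hmem
    have h1 : x₁ ∈ D i0 := by
      have := (D i0).sub_mem hmem hx₀D
      rwa [add_sub_cancel_left] at this
    exact hx₁0 (hdis x₁ h1 (hle1 i1 h01.symm hx₁D))
  · have h1 : x₀ ∈ ⨆ (j : Fin t) (_ : j ≠ i0), D j := by
      have := Submodule.sub_mem _ (hle1 _ hj hmem) (hle1 i1 h01.symm hx₁D)
      rwa [hgc, add_sub_cancel_right] at this
    exact hx₀0 (hdis x₀ hx₀D h1)

end Cfsg.Agent.Lib.Helper35.OE
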