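import Cfsg.Agent.Lib.Helper35.OE.N7a
import Cfsg.Agent.Lib.Helper86.OE.N0

set_option autoImplicit false
set_option linter.unusedSectionVars false

/-! # N7: `Ω(Q)` is not contained in a tensor product subgroup -/

namespace Cfsg.Agent.Lib.Helper35.OE

open Cfsg Cfsg.Geo Matrix Cfsg.Agent.Lib.Helper13.Asch Cfsg.Agent.Lib.Helper90.Sp
open Cfsg.Agent.Lib.Helper57.OE
open scoped Kronecker MatrixGroups

variable {ι : Type} [Fintype ι] [DecidableEq ι] {F : Type*} [Field F] {Q : (ι → F) → F}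

theorem hasEichler [Fintype F] (hQ : IsNondegenerateQuadraticForm Q)
    (hι : 5 ≤ Fintype.card ι) : HasEichler Q :=
  fun u v hu huv => Cfsg.Agent.Lib.Helper86.OE.exists_eichler hQ hι u v hu huv

/-- N7 -/
theorem not_le_tensor [Fintype F] (hQ : IsNondegenerateQuadraticForm Q)
    (hι : 5 ≤ Fintype.card ι) {a b : ℕ} (ha : 3 ≤ a) (hb : 3 ≤ b) (e : ι ≃ Fin a × Fin b)
    (P : GL ι F) : ¬ omegaGL Q ≤ tensorProductSubgroup a b e P :=
  not_le_tensor_aux hQ hι (hasEichler hQ hι) ha hb e P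

end Cfsg.Agent.Lib.Helper35.OE
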