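import Cfsg.Agent.Lib.Helper57.OE.Base
import Cfsg.Agent.Lib.Helper35.OE.T4
import Cfsg.Agent.Lib.Helper44.Isotropy
import Cfsg.Agent.Lib.Helper94.QuadWrap

set_option autoImplicit false
set_option linter.unusedSectionVars false

/-! # N7 (auxiliary form): `Ω(Q)` is not contained in a tensor product subgroup -/

namespace Cfsg.Agent.Lib.Helper35.OE

open Cfsg Cfsg.Geo Matrix Cfsg.Agent.Lib.Helper13.Asch Cfsg.Agent.Lib.Helper90.Sp
open Cfsg.Agent.Lib.Helper57.OE
open scoped Kronecker MatrixGroups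

variable {ι : Type} [Fintype ι] [DecidableEq ι] {F : Type*} [Field F] {Q : (ι → F) → F}

/-- the conclusion of N0 (existence of Eichler transformations in `Ω`) -/
def HasEichler (Q : (ι → F) → F) : Prop :=
  ∀ u v : ι → F, Q u = 0 → QuadraticMap.polar Q u v = 0 →
    ∃ g ∈ omegaGL Q, ∀ x, (g : Matrix ι ι F) *ᵥ x =
      x + QuadraticMap.polar Q v x • u - QuadraticMap.polar Q u x • v -
        (Q v * QuadraticMap.polar Q u x) • u

namespace N7aux

open T4aux

theorem pureV_inj {a b : ℕ} (e : ι ≃ Fin a × Fin b) (P : GL ι F) {x x' : Fin a → F}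
    {y y' : Fin b → F} (h : pureV e P x y = pureV e P x' y') (i : Fin a) (j : Fin b) :
    x i * y j = x' i * y' j := by
  unfold pureV at h
  have h1 := congrArg (fun w => ((P⁻¹ : GL ι F) : Matrix ι ι F) *ᵥ w) h
  simp only [Matrix.mulVec_mulVec, ← Units.val_mul, inv_mul_cancel, Units.val_one,
    Matrix.one_mulVec] at h1
  have h2 := congrFun h1 (e.symm (i, j))
  simpa using h2

theorem tens_mulVec_pureV {a b : ℕ} (e : ι ≃ Fin a × Fin b) (P : GL ι F)
    (α : Matrix (Fin a) (Fin a) F) (β : Matrix (Fin b) (Fin b) F) (x : Fin a → F) (y : Fin b → F) :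
    ((P : Matrix ι ι F) * Matrix.reindex e.symm e.symm (α ⊗ₖ β) *
      ((P⁻¹ : GL ι F) : Matrix ι ι F)) *ᵥ pureV e P x y = pureV e P (α *ᵥ x) (β *ᵥ y) := by
  unfold pureV
  rw [Cfsg.Agent.Lib.Helper99.Sp.conj_mulVec]
  congr 2
  ext p
  simp only [Matrix.mulVec, dotProduct, Matrix.kroneckerMap_apply, Fintype.sum_prod_type,
    Finset.sum_mul, Finset.mul_sum]
  rw [Finset.sum_comm]
  refine Finset.sum_congr rfl fun i _ => ?_
  refine Finset.sum_congr rfl fun j _ => ?_
  ring

theorem span_pure {a b : ℕ} (e : ι ≃ Fin a × Fin b) (P : GL ι F) (v : ι → F) :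
    v = ∑ i, (((P⁻¹ : GL ι F) : Matrix ι ι F) *ᵥ v) i •
      pureV e P (Pi.single (e i).1 1) (Pi.single (e i).2 1) := by
  have hb : ∀ i, pureV e P (Pi.single (e i).1 1) (Pi.single (e i).2 1)
      = (P : Matrix ι ι F) *ᵥ (Pi.single i 1) := by
    intro i
    unfold pureV
    congr 1
    ext k
    simp only [Function.comp_apply, Pi.single_apply]
    by_cases hk : k = i
    · subst hk; simp
    · have : e k ≠ e i := fun h => hk (e.injective h)
      rw [if_neg hk]
      by_cases h1 : (e k).1 = (e i).1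
      · have h2 : (e k).2 ≠ (e i).2 := fun h2 => this (Prod.ext h1 h2)
        simp [h2]
      · simp [h1]
  simp only [hb]
  simp only [← Matrix.mulVec_smul]
  rw [← Matrix.mulVec_sum]
  have : ∑ i, (((P⁻¹ : GL ι F) : Matrix ι ι F) *ᵥ v) i • (Pi.single i (1 : F) : ι → F)
      = ((P⁻¹ : GL ι F) : Matrix ι ι F) *ᵥ v := by
    ext j
    simp [Finset.sum_apply, Pi.single_apply]
  rw [this, Matrix.mulVec_mulVec, ← Units.val_mul, mul_inv_cancel, Units.val_one,
    Matrix.one_mulVec]

theorem finrank_span_pair_le (u v : ι → F) :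
    Module.finrank F (Submodule.span F ({u, v} : Set (ι → F))) ≤ 2 := by
  classical
  have h := finrank_span_finset_le_card (R := F) ({u, v} : Finset (ι → F))
  have h2 : ({u, v} : Finset (ι → F)).card ≤ 2 := Finset.card_le_two
  have h3 : ((({u, v} : Finset (ι → F)) : Set (ι → F))) = {u, v} := by simp
  rw [h3] at h
  unfold Set.finrank at h
  omega

/-- if `α ⊗ β - 1` has rank at most two and `3 ≤ b` then `α` is a scalar -/
theorem left_scalar {a b : ℕ} (hb : 3 ≤ b) (e : ι ≃ Fin a × Fin b) (P : GL ι F)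
    (α : Matrix (Fin a) (Fin a) F) (β : Matrix (Fin b) (Fin b) F) (u v : ι → F)
    (hr : ∀ x y, pureV e P (α *ᵥ x) (β *ᵥ y) - pureV e P x y ∈
      Submodule.span F ({u, v} : Set (ι → F))) :
    ∃ s : F, ∀ x, α *ᵥ x = s • x := by
  by_cases hall : ∀ x, ¬ LinearIndependent F ![x, Matrix.toLin' α x]
  · obtain ⟨s, hs⟩ := LinearMap.exists_eq_smul_id_of_forall_notLinearIndependent hall
    refine ⟨s, fun x => ?_⟩
    have := congrArg (fun f => f x) hs
    simpa using this
  exfalso
  push Not at hall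
  obtain ⟨x, hx⟩ := hall
  rw [Matrix.toLin'_apply, LinearIndependent.pair_iff] at hx
  let L : (Fin b → F) →ₗ[F] (ι → F) :=
    { toFun := fun y => pureV e P (α *ᵥ x) (β *ᵥ y) - pureV e P x y
      map_add' := by
        intro y y'
        rw [Matrix.mulVec_add, pureV_add_right, pureV_add_right]
        abel
      map_smul' := by
        intro c y
        rw [Matrix.mulVec_smul, pureV_smul_right, pureV_smul_right, RingHom.id_apply, smul_sub] }
  have hL : ∀ y, L y = pureV e P (α *ᵥ x) (β *ᵥ y) - pureV e P x y := fun _ => rfl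
  have hinj : Function.Injective L := by
    rw [injective_iff_map_eq_zero]
    intro y hy
    rw [hL, sub_eq_zero] at hy
    by_contra hy0
    obtain ⟨j, hj⟩ : ∃ j, y j ≠ 0 := by
      by_contra hcon
      push Not at hcon
      exact hy0 (funext hcon)
    have h1 : (1 : F) • x + (-((β *ᵥ y) j / y j)) • (α *ᵥ x) = 0 := by
      ext i
      have := pureV_inj e P hy i j
      simp only [Pi.add_apply, Pi.smul_apply, smul_eq_mul, Pi.zero_apply]
      field_simp
      linear_combination -this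
    exact one_ne_zero (hx _ _ h1).1
  have h1 : Module.finrank F (LinearMap.range L) = b := by
    rw [LinearMap.finrank_range_of_inj hinj, Module.finrank_fin_fun]
  have h2 : LinearMap.range L ≤ Submodule.span F ({u, v} : Set (ι → F)) := by
    rintro _ ⟨y, rfl⟩
    exact hr x y
  have h3 := Submodule.finrank_mono h2
  have h4 := finrank_span_pair_le u v
  omega

theorem scalar_of_rank_two {a b : ℕ} (ha : 3 ≤ a) (hb : 3 ≤ b) (e : ι ≃ Fin a × Fin b)
    (P : GL ι F) (τ : GL ι F) (hτ : τ ∈ tensorProductSubgroup a b e P) (u v : ι → F)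
    (hr : ∀ x, (τ : Matrix ι ι F) *ᵥ x - x ∈ Submodule.span F ({u, v} : Set (ι → F))) :
    ∃ c : F, ∀ x, (τ : Matrix ι ι F) *ᵥ x = c • x := by
  obtain ⟨α, β, hαβ⟩ := (Cfsg.Agent.Lib.Helper35.Asch.mem_tensor_iff e P τ).1 hτ
  have hp : ∀ x y, (τ : Matrix ι ι F) *ᵥ pureV e P x y
      = pureV e P ((α : Matrix _ _ F) *ᵥ x) ((β : Matrix _ _ F) *ᵥ y) := by
    intro x y
    rw [hαβ, tens_mulVec_pureV]
  obtain ⟨s, hs⟩ := left_scalar hb e P (α : Matrix _ _ F) (β : Matrix _ _ F) u v (by
    intro x y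
    rw [← hp]
    exact hr _)
  obtain ⟨s', hs'⟩ := left_scalar ha (e.trans (Equiv.prodComm _ _)) P (β : Matrix _ _ F)
    (α : Matrix _ _ F) u v (by
    intro y x
    rw [pureV_swap, pureV_swap, ← hp]
    exact hr _)
  refine ⟨s * s', fun x => ?_⟩
  conv_lhs => rw [span_pure e P x]
  conv_rhs => rw [span_pure e P x]
  rw [Matrix.mulVec_sum, Finset.smul_sum]
  refine Finset.sum_congr rfl fun i _ => ?_
  rw [Matrix.mulVec_smul, hp, hs, hs', pureV_smul_left, pureV_smul_right, smul_smul, smul_smul,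
    smul_smul]
  congr 1
  ring

end N7aux

open N7aux

/-- a non-zero singular vector `u` and `v ∈ u^⊥` outside the line of `u` -/
theorem exists_sing_pair [Fintype F] (hQ : IsNondegenerateQuadraticForm Q)
    (hι : 5 ≤ Fintype.card ι) :
    ∃ u v : ι → F, u ≠ 0 ∧ Q u = 0 ∧ QuadraticMap.polar Q u v = 0 ∧
      v ∉ Submodule.span F ({u} : Set (ι → F)) := by
  obtain ⟨u, -, hu0, hu⟩ := Cfsg.Agent.Lib.Helper44.exists_singular_of_finrank
    (Cfsg.Agent.Lib.Helper94.quadOf Q hQ) ⊤ (by
      rw [finrank_top, Module.finrank_fintype_fun_eq_card]; omega)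
  have hu' : Q u = 0 := hu
  have hb := hQ.polar_bilinear
  let φ : (ι → F) →ₗ[F] F :=
    { toFun := fun x => QuadraticMap.polar Q u x
      map_add' := fun x y => hb.add_right u x y
      map_smul' := fun c x => hb.smul_right c u x }
  have h1 := LinearMap.finrank_range_add_finrank_ker φ
  rw [Module.finrank_fintype_fun_eq_card] at h1
  have h3 : Module.finrank F (LinearMap.range φ) ≤ 1 := by
    have := Submodule.finrank_le (LinearMap.range φ)
    rwa [Module.finrank_self] at this
  have h4 : ¬ LinearMap.ker φ ≤ Submodule.span F ({u} : Set (ι → F)) := by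
    intro hle
    have h5 := Submodule.finrank_mono hle
    have h6 : Module.finrank F (Submodule.span F ({u} : Set (ι → F))) ≤ 1 := by
      rw [finrank_span_singleton hu0]
    omega
  obtain ⟨v, hv, hv'⟩ := SetLike.not_le_iff_exists.1 h4
  exact ⟨u, v, hu0, hu', hv, hv'⟩

theorem not_le_tensor_aux [Fintype F] (hQ : IsNondegenerateQuadraticForm Q)
    (hι : 5 ≤ Fintype.card ι) (hE : HasEichler Q) {a b : ℕ} (ha : 3 ≤ a) (hb : 3 ≤ b)
    (e : ι ≃ Fin a × Fin b) (P : GL ι F) : ¬ omegaGL Q ≤ tensorProductSubgroup a b e P := by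
  intro hle
  obtain ⟨u, v, hu0, hu, huv, hv⟩ := exists_sing_pair hQ hι
  obtain ⟨g, hg, hgx⟩ := hE u v hu huv
  obtain ⟨c, hc⟩ := scalar_of_rank_two ha hb e P g (hle hg) u v (by
    intro x
    rw [hgx, Submodule.mem_span_pair]
    refine ⟨QuadraticMap.polar Q v x - Q v * QuadraticMap.polar Q u x,
      - QuadraticMap.polar Q u x, ?_⟩
    module)
  have huu : QuadraticMap.polar Q u u = 0 := by rw [← two_mul_Q hQ, hu, mul_zero]
  have hvu : QuadraticMap.polar Q v u = 0 := by rw [QuadraticMap.polar_comm]; exact huv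
  have hc1 : c = 1 := by
    have h1 := hgx u
    rw [hc, huu, hvu] at h1
    simp only [zero_smul, mul_zero, add_zero, sub_zero] at h1
    obtain ⟨i, hi⟩ : ∃ i, u i ≠ 0 := by
      by_contra hcon
      push Not at hcon
      exact hu0 (funext hcon)
    have h2 := congrFun h1 i
    simp only [Pi.smul_apply, smul_eq_mul] at h2
    exact mul_right_cancel₀ hi (by rw [h2, one_mul])
  obtain ⟨x₀, hx₀⟩ := (hQ.nondegenerate u hu0).2
  apply hv
  rw [Submodule.mem_span_singleton]
  have h1 := hgx x₀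
  rw [hc, hc1, one_smul] at h1
  refine ⟨(QuadraticMap.polar Q v x₀ - Q v * QuadraticMap.polar Q u x₀) /
    QuadraticMap.polar Q u x₀, ?_⟩
  have h2 : QuadraticMap.polar Q u x₀ • v
      = (QuadraticMap.polar Q v x₀ - Q v * QuadraticMap.polar Q u x₀) • u := by
    have h3 : x₀ + QuadraticMap.polar Q v x₀ • u - QuadraticMap.polar Q u x₀ • v -
        (Q v * QuadraticMap.polar Q u x₀) • u - x₀ = 0 := by
      rw [← h1, sub_self]
    have h4 : (QuadraticMap.polar Q v x₀ - Q v * QuadraticMap.polar Q u x₀) • u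
        - QuadraticMap.polar Q u x₀ • v = 0 := by
      rw [← h3]
      module
    exact (sub_eq_zero.1 h4).symm
  rw [div_eq_inv_mul, mul_smul, ← h2, smul_smul, inv_mul_cancel₀ hx₀, one_smul]

end Cfsg.Agent.Lib.Helper35.OE
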