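import Cfsg.Agent.Lib.Helper35.OE.YQ2a
import Cfsg.Agent.Lib.Helper55.Asch.DecCore
import Cfsg.Agent.Lib.Helper8.OE.YAP
import Cfsg.Agent.Lib.Helper84.OE.YRF

set_option autoImplicit false
set_option linter.unusedSectionVars false
set_option linter.unusedSimpArgs false
set_option linter.unusedVariables false

/-! # YQ2: over `F₂` a decomposition into plus-type 4-spaces refines to anisotropic planes -/

namespace Cfsg.Agent.Lib.Helper35.OE

open Cfsg Cfsg.Geo Matrix Cfsg.Agent.Lib.Helper13.Asch Cfsg.Agent.Lib.Helper90.Sp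
open Cfsg.Agent.Lib.Helper57.OE
open scoped Kronecker MatrixGroups

variable {ι : Type} [Fintype ι] [DecidableEq ι] {F : Type*} [Field F] {Q : (ι → F) → F}

/-- the image of an anisotropic plane under an isometry is an anisotropic plane -/
theorem AnisoPlane.map {P : Submodule F (ι → F)} (hP : AnisoPlane Q P) (g : GL ι F)
    (hg : ∀ v, Q ((g : Matrix ι ι F) *ᵥ v) = Q v) :
    AnisoPlane Q (P.map (Matrix.toLin' (g : Matrix ι ι F))) := by
  have e2 : ((g⁻¹ : GL ι F) : Matrix ι ι F) * (g : Matrix ι ι F) = 1 := by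
    rw [← Units.val_mul, inv_mul_cancel, Units.val_one]
  have hinj : Function.Injective (Matrix.toLin' (g : Matrix ι ι F)) := by
    intro a b hab
    have h1 : ((g⁻¹ : GL ι F) : Matrix ι ι F) *ᵥ ((g : Matrix ι ι F) *ᵥ a) =
        ((g⁻¹ : GL ι F) : Matrix ι ι F) *ᵥ ((g : Matrix ι ι F) *ᵥ b) := by
      rw [← Matrix.toLin'_apply (g : Matrix ι ι F) a, ← Matrix.toLin'_apply (g : Matrix ι ι F) b,
        hab]
    rwa [Matrix.mulVec_mulVec, Matrix.mulVec_mulVec, e2, Matrix.one_mulVec,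
      Matrix.one_mulVec] at h1
  refine ⟨?_, ?_⟩
  · rw [← hP.1]
    exact (LinearEquiv.finrank_eq (Submodule.equivMapOfInjective _ hinj P)).symm
  · rintro _ ⟨w, hw, rfl⟩ h0
    rw [Matrix.toLin'_apply, hg]
    apply hP.2 w hw
    rintro rfl
    exact h0 (map_zero _)

/-- YQ2 -/
theorem four_plus_two [Fintype F] (hq : Fintype.card F = 2)
    (hQ : IsNondegenerateQuadraticForm Q)
    {H : Subgroup (GL ι F)} (hH : FixesQuadForm (matrixSet H) Q) {t n : ℕ} (hn : n = 2 * t)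
    (D : Fin t → Submodule F (ι → F)) (hD : IsOrthogonalMDecomposition Q 4 D)
    (hplus : ∀ i, IsPlusTypeOn Q (D i)) (hHD : H ≤ decompositionStabilizer D) :
    ∃ D' : Fin n → Submodule F (ι → F), IsOrthogonalMDecomposition Q 2 D' ∧
      (∀ i, ¬ IsPlusTypeOn Q (D' i)) ∧ H ≤ decompositionStabilizer D' := by
  choose P₁ P₂ h1X h2X hA1 hA2 ho hall using fun i => four_plus_two_local hq hQ (D i)
    (hD.decomp.nondegenerate i) (hD.decomp.decomp.finrank_eq i) (hplus i)
  obtain ⟨E, hE⟩ : ∃ E : Fin t × Fin 2 → Submodule F (ι → F),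
      E = fun x => if x.2 = 0 then P₁ x.1 else P₂ x.1 := ⟨_, rfl⟩
  have hE0 : ∀ i, E (i, 0) = P₁ i := fun i => by rw [hE]; simp
  have hE1 : ∀ i, E (i, 1) = P₂ i := fun i => by rw [hE]; simp
  have hEle : ∀ x, E x ≤ D x.1 := by
    rintro ⟨i, j⟩
    fin_cases j
    · exact (hE0 i).le.trans (h1X i)
    · exact (hE1 i).le.trans (h2X i)
  have hEan : ∀ x, AnisoPlane Q (E x) := by
    rintro ⟨i, j⟩
    fin_cases j
    · exact (hE0 i) ▸ hA1 i
    · exact (hE1 i) ▸ hA2 i
  have ht := hD.decomp.decomp.two_le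
  have hcard := Cfsg.Agent.Lib.Helper55.Asch.card_of_decomp D hD.decomp.decomp
  obtain ⟨D', hD', hHD', hDE⟩ := Cfsg.Agent.Lib.Helper84.OE.rdec_of_family (H := H) (κ := Fin t × Fin 2) (n := n) (k := 2) hQ
    (by simp [hn, mul_comm]) (by omega) (by norm_num) (by rw [← hcard, hn]; ring) E
    (fun x => (hEan x).1)
    (fun x => (Cfsg.Agent.Lib.Helper8.OE.anisoPlane_two hq hQ _ _ (hEan x) (hEan x)).1)
    (by
      rintro ⟨i, j⟩ ⟨i', j'⟩ hne u hu v hv
      by_cases hii : i = i'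
      · subst hii
        have hjj : j ≠ j' := fun h => hne (by rw [h])
        fin_cases j <;> fin_cases j'
        · exact absurd rfl hjj
        · exact ho i u ((hE0 i) ▸ hu) v ((hE1 i) ▸ hv)
        · rw [QuadraticMap.polar_comm]
          exact ho i v ((hE0 i) ▸ hv) u ((hE1 i) ▸ hu)
        · exact absurd rfl hjj
      · exact hD.decomp.orthogonal i i' hii u (hEle _ hu) v (hEle _ hv))
    (fun x y => (Cfsg.Agent.Lib.Helper8.OE.anisoPlane_two hq hQ _ _ (hEan x) (hEan y)).2.2)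
    (by
      intro h hh x
      obtain ⟨σ, hσ⟩ := hHD hh
      have hle : (E x).map (Matrix.toLin' (h : Matrix ι ι F)) ≤ D (σ x.1) := by
        rw [← hσ]
        exact Submodule.map_mono (hEle x)
      have han := (hEan x).map h (fun v => hH _ ⟨h, hh, rfl⟩ v)
      rcases hall (σ x.1) _ hle han with h1 | h1
      · exact ⟨(σ x.1, 0), by rw [h1, hE0]⟩
      · exact ⟨(σ x.1, 1), by rw [h1, hE1]⟩)
  refine ⟨D', hD', fun i => ?_, hHD'⟩
  obtain ⟨x, hx⟩ := hDE i
  rw [hx]
  exact (Cfsg.Agent.Lib.Helper8.OE.anisoPlane_two hq hQ _ _ (hEan x) (hEan x)).2.1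

end Cfsg.Agent.Lib.Helper35.OE
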