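import Cfsg.Agent.Lib.Helper57.OE.Base

set_option autoImplicit false
set_option linter.unusedSectionVars false
set_option linter.unusedSimpArgs false
set_option linter.unusedVariables false

/-! # YQ2a: over `F₂` a 4-space of plus type contains exactly two anisotropic planes -/

namespace Cfsg.Agent.Lib.Helper35.OE

open Cfsg Cfsg.Geo Matrix Cfsg.Agent.Lib.Helper13.Asch Cfsg.Agent.Lib.Helper90.Sp
open Cfsg.Agent.Lib.Helper57.OE
open scoped Kronecker MatrixGroups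

variable {ι : Type} [Fintype ι] [DecidableEq ι] {F : Type*} [Field F] {Q : (ι → F) → F}

/-- `P` is an anisotropic plane -/
def AnisoPlane (Q : (ι → F) → F) (P : Submodule F (ι → F)) : Prop :=
  Module.finrank F P = 2 ∧ ∀ v ∈ P, v ≠ 0 → Q v ≠ 0

namespace YQ2aux

theorem zero_or_one [Fintype F] (hq : Fintype.card F = 2) (a : F) : a = 0 ∨ a = 1 := by
  classical
  by_contra h
  push Not at h
  have : ({0, 1, a} : Finset F).card ≤ Fintype.card F := Finset.card_le_univ _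
  rw [Finset.card_insert_of_notMem, Finset.card_insert_of_notMem, Finset.card_singleton] at this
  · omega
  · simp [h.2.symm]
  · simp [h.1.symm]

theorem two_eq_zero' [Fintype F] (hq : Fintype.card F = 2) : (2 : F) = 0 := by
  rcases zero_or_one hq (2 : F) with h | h
  · exact h
  · exfalso
    have : (1 : F) + 1 = 1 := by rw [one_add_one_eq_two]; exact h
    simp at this

theorem polar_self [Fintype F] (hq : Fintype.card F = 2) (hQ : IsNondegenerateQuadraticForm Q)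
    (v : ι → F) : QuadraticMap.polar Q v v = 0 := by
  rw [← two_mul_Q hQ, two_eq_zero' hq, zero_mul]

theorem Q_pair (hQ : IsNondegenerateQuadraticForm Q) (a b : F) (u v : ι → F) :
    Q (a • u + b • v) = a ^ 2 * Q u + b ^ 2 * Q v + a * b * QuadraticMap.polar Q u v := by
  rw [Q_add Q, hQ.smul, hQ.smul, hQ.polar_bilinear.smul_left, hQ.polar_bilinear.smul_right]
  ring

/-- two vectors with `Q = 1` and `B = 1` span an anisotropic plane -/
theorem aniso_span [Fintype F] (hq : Fintype.card F = 2) (hQ : IsNondegenerateQuadraticForm Q)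
    (u v : ι → F) (hu : Q u = 1) (hv : Q v = 1) (huv : QuadraticMap.polar Q u v = 1) :
    AnisoPlane Q (Submodule.span F {u, v}) := by
  have hb := hQ.polar_bilinear
  have hli : LinearIndependent F ![u, v] := by
    rw [LinearIndependent.pair_iff]
    intro a b hab
    have h1 : QuadraticMap.polar Q (a • u + b • v) v = 0 := by
      rw [hab]
      have := hb.smul_left 0 0 v
      simpa using this
    have h2 : QuadraticMap.polar Q u (a • u + b • v) = 0 := by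
      rw [hab]
      have := hb.smul_right 0 u 0
      simpa using this
    rw [hb.add_left, hb.smul_left, hb.smul_left, huv, polar_self hq hQ] at h1
    rw [hb.add_right, hb.smul_right, hb.smul_right, huv, polar_self hq hQ] at h2
    constructor
    · simpa using h1
    · simpa using h2
  refine ⟨?_, ?_⟩
  · have := finrank_span_eq_card hli
    rw [Fintype.card_fin] at this
    have hr : Set.range ![u, v] = {u, v} := by
      ext x
      simp [eq_comm, or_comm]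
    rw [hr] at this
    exact this
  · intro w hw hw0
    obtain ⟨a, b, rfl⟩ := Submodule.mem_span_pair.1 hw
    rw [Q_pair hQ, hu, hv, huv]
    rcases zero_or_one hq a with rfl | rfl <;> rcases zero_or_one hq b with rfl | rfl
    · simp at hw0
    · simp
    · simp
    · have h2 := two_eq_zero' hq
      have : (1 : F) ^ 2 * 1 + 1 ^ 2 * 1 + 1 * 1 * 1 = 2 + 1 := by ring
      rw [this, h2]
      simp

theorem ne_zero_eq_one [Fintype F] (hq : Fintype.card F = 2) {a : F} (ha : a ≠ 0) : a = 1 :=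
  (zero_or_one hq a).resolve_left ha

theorem dual_vec [Fintype F] (hq : Fintype.card F = 2) (hQ : IsNondegenerateQuadraticForm Q)
    (X : Submodule F (ι → F)) (hnd : IsNondegenerateOn (QuadraticMap.polar Q) X)
    (e₁ e₂ : ι → F) (h1X : e₁ ∈ X) (h2X : e₂ ∈ X) (h1 : e₁ ≠ 0) (h12 : e₁ + e₂ ≠ 0) :
    ∃ f ∈ X, QuadraticMap.polar Q e₁ f = 1 ∧ QuadraticMap.polar Q e₂ f = 0 := by
  have hb := hQ.polar_bilinear
  have h2 := two_eq_zero' hq
  obtain ⟨x, hxX, hx⟩ := (hnd e₁ h1X h1).2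
  obtain ⟨z, hzX, hz⟩ := (hnd (e₁ + e₂) (X.add_mem h1X h2X) h12).2
  have hx1 := ne_zero_eq_one hq hx
  have hz1 := ne_zero_eq_one hq hz
  rw [hb.add_left] at hz1
  rcases zero_or_one hq (QuadraticMap.polar Q e₂ x) with h | h
  · exact ⟨x, hxX, hx1, h⟩
  · rcases zero_or_one hq (QuadraticMap.polar Q e₁ z) with h' | h'
    · rw [h', zero_add] at hz1
      refine ⟨x + z, X.add_mem hxX hzX, ?_, ?_⟩
      · rw [hb.add_right, hx1, h', add_zero]
      · rw [hb.add_right, h, hz1, one_add_one_eq_two, h2]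
    · rw [h'] at hz1
      refine ⟨z, hzX, h', ?_⟩
      simpa using hz1

theorem exists_hyp [Fintype F] (hq : Fintype.card F = 2) (hQ : IsNondegenerateQuadraticForm Q)
    (X : Submodule F (ι → F)) (hnd : IsNondegenerateOn (QuadraticMap.polar Q) X)
    (hdim : Module.finrank F X = 4) (hplus : IsPlusTypeOn Q X) :
    ∃ e₁ f₁ e₂ f₂ : ι → F, e₁ ∈ X ∧ f₁ ∈ X ∧ e₂ ∈ X ∧ f₂ ∈ X ∧ Q e₁ = 0 ∧ Q f₁ = 0 ∧ Q e₂ = 0 ∧
      Q f₂ = 0 ∧ QuadraticMap.polar Q e₁ f₁ = 1 ∧ QuadraticMap.polar Q e₂ f₂ = 1 ∧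
      QuadraticMap.polar Q e₁ e₂ = 0 ∧ QuadraticMap.polar Q e₁ f₂ = 0 ∧
      QuadraticMap.polar Q e₂ f₁ = 0 ∧ QuadraticMap.polar Q f₁ f₂ = 0 := by
  have hb := hQ.polar_bilinear
  have h2 := two_eq_zero' hq
  obtain ⟨U, hUX, hU, hUd⟩ := hplus
  have hUd2 : Module.finrank F U = 2 := by omega
  let b := Module.finBasisOfFinrankEq F U hUd2
  have hli : LinearIndependent F ![((b 0 : U) : ι → F), ((b 1 : U) : ι → F)] := by
    have h := b.linearIndependent.map' U.subtype (Submodule.ker_subtype U)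
    have he : ![((b 0 : U) : ι → F), ((b 1 : U) : ι → F)] = U.subtype ∘ b := by
      ext i : 1
      fin_cases i <;> rfl
    rw [he]
    exact h
  obtain ⟨e₁, he₁⟩ : ∃ e₁, e₁ = ((b 0 : U) : ι → F) := ⟨_, rfl⟩
  obtain ⟨e₂, he₂⟩ : ∃ e₂, e₂ = ((b 1 : U) : ι → F) := ⟨_, rfl⟩
  have h1U : e₁ ∈ U := by rw [he₁]; exact (b 0).2
  have h2U : e₂ ∈ U := by rw [he₂]; exact (b 1).2
  rw [← he₁, ← he₂, LinearIndependent.pair_iff] at hli
  have h10 : e₁ ≠ 0 := by
    intro h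
    have := hli 1 0 (by rw [h]; simp)
    exact one_ne_zero this.1
  have h20 : e₂ ≠ 0 := by
    intro h
    have := hli 0 1 (by rw [h]; simp)
    exact one_ne_zero this.2
  have h120 : e₁ + e₂ ≠ 0 := by
    intro h
    have := hli 1 1 (by rw [one_smul, one_smul]; exact h)
    exact one_ne_zero this.1
  have hQ1 : Q e₁ = 0 := hU e₁ h1U
  have hQ2 : Q e₂ = 0 := hU e₂ h2U
  have hB12 : QuadraticMap.polar Q e₁ e₂ = 0 := by
    unfold QuadraticMap.polar
    rw [hU _ (U.add_mem h1U h2U), hQ1, hQ2]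
    ring
  have hB21 : QuadraticMap.polar Q e₂ e₁ = 0 := by rw [QuadraticMap.polar_comm]; exact hB12
  obtain ⟨g₁, hg₁X, hg11, hg12⟩ := dual_vec hq hQ X hnd e₁ e₂ (hUX h1U) (hUX h2U) h10 h120
  obtain ⟨g₂, hg₂X, hg22, hg21⟩ := dual_vec hq hQ X hnd e₂ e₁ (hUX h2U) (hUX h1U) h20
    (by rw [add_comm]; exact h120)
  obtain ⟨f₁, hf₁⟩ : ∃ f₁, f₁ = g₁ + Q g₁ • e₁ := ⟨_, rfl⟩
  have hf11 : QuadraticMap.polar Q e₁ f₁ = 1 := by
    rw [hf₁, hb.add_right, hb.smul_right, polar_self hq hQ, hg11]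
    ring
  have hf12 : QuadraticMap.polar Q e₂ f₁ = 0 := by
    rw [hf₁, hb.add_right, hb.smul_right, hB21, hg12]
    ring
  have hQf1 : Q f₁ = 0 := by
    rw [hf₁, Q_add Q, hQ.smul, hb.smul_right, QuadraticMap.polar_comm Q g₁ e₁, hg11, hQ1]
    linear_combination Q g₁ * h2
  obtain ⟨f₂, hf₂⟩ : ∃ f₂, f₂ = g₂ + (QuadraticMap.polar Q f₁ g₂ • e₁ + Q g₂ • e₂) := ⟨_, rfl⟩
  have hf21 : QuadraticMap.polar Q e₁ f₂ = 0 := by
    rw [hf₂, hb.add_right, hb.add_right, hb.smul_right, hb.smul_right, polar_self hq hQ, hB12,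
      hg21]
    ring
  have hf22 : QuadraticMap.polar Q e₂ f₂ = 1 := by
    rw [hf₂, hb.add_right, hb.add_right, hb.smul_right, hb.smul_right, polar_self hq hQ, hB21,
      hg22]
    ring
  have hff : QuadraticMap.polar Q f₁ f₂ = 0 := by
    rw [hf₂, hb.add_right, hb.add_right, hb.smul_right, hb.smul_right,
      QuadraticMap.polar_comm Q f₁ e₁, QuadraticMap.polar_comm Q f₁ e₂, hf11, hf12]
    linear_combination QuadraticMap.polar Q f₁ g₂ * h2
  have hQf2 : Q f₂ = 0 := by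
    rw [hf₂, Q_add Q, Q_pair hQ, hb.add_right, hb.smul_right, hb.smul_right,
      QuadraticMap.polar_comm Q g₂ e₁, QuadraticMap.polar_comm Q g₂ e₂, hg21, hg22, hQ1, hQ2, hB12]
    linear_combination Q g₂ * h2
  refine ⟨e₁, f₁, e₂, f₂, hUX h1U, ?_, hUX h2U, ?_, hQ1, hQf1, hQ2, hQf2, hf11, hf22, hB12, hf21,
    hf12, hff⟩
  · rw [hf₁]
    exact X.add_mem hg₁X (X.smul_mem _ (hUX h1U))
  · rw [hf₂]
    exact X.add_mem hg₂X (X.add_mem (X.smul_mem _ (hUX h1U)) (X.smul_mem _ (hUX h2U)))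

theorem orth_span (hQ : IsNondegenerateQuadraticForm Q) (t₁ t₂ s₁ s₂ : ι → F)
    (h11 : QuadraticMap.polar Q t₁ s₁ = 0) (h12 : QuadraticMap.polar Q t₁ s₂ = 0)
    (h21 : QuadraticMap.polar Q t₂ s₁ = 0) (h22 : QuadraticMap.polar Q t₂ s₂ = 0) :
    AreOrthogonalFor (QuadraticMap.polar Q) (Submodule.span F {t₁, t₂})
      (Submodule.span F {s₁, s₂}) := by
  have hb := hQ.polar_bilinear
  intro u hu v hv
  obtain ⟨a, b, rfl⟩ := Submodule.mem_span_pair.1 hu
  obtain ⟨c, d, rfl⟩ := Submodule.mem_span_pair.1 hv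
  simp only [hb.add_left, hb.add_right, hb.smul_left, hb.smul_right, h11, h12, h21, h22]
  ring

/-- the abstract statement: two orthogonal anisotropic planes inside a 4-space -/
theorem of_two_planes [Fintype F] (hq : Fintype.card F = 2) (hQ : IsNondegenerateQuadraticForm Q)
    (X : Submodule F (ι → F)) (hdim : Module.finrank F X = 4) (P₁ P₂ : Submodule F (ι → F))
    (h1X : P₁ ≤ X) (h2X : P₂ ≤ X) (h1 : AnisoPlane Q P₁) (h2 : AnisoPlane Q P₂)
    (ho : AreOrthogonalFor (QuadraticMap.polar Q) P₁ P₂) (hdis : Disjoint P₁ P₂)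
    (P : Submodule F (ι → F)) (hPX : P ≤ X) (hP : AnisoPlane Q P) : P = P₁ ∨ P = P₂ := by
  have h20 := two_eq_zero' hq
  have hsup : P₁ ⊔ P₂ = X := by
    apply Submodule.eq_of_le_of_finrank_eq (sup_le h1X h2X)
    have := Submodule.finrank_sup_add_finrank_inf_eq P₁ P₂
    rw [hdis.eq_bot, finrank_bot, h1.1, h2.1] at this
    omega
  have hmem : ∀ w ∈ P, w ∈ P₁ ∨ w ∈ P₂ := by
    intro w hw
    by_cases hw0 : w = 0
    · left
      rw [hw0]
      exact P₁.zero_mem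
    have hwX : w ∈ P₁ ⊔ P₂ := by rw [hsup]; exact hPX hw
    obtain ⟨p₁, hp₁, p₂, hp₂, rfl⟩ := Submodule.mem_sup.1 hwX
    have hQw := hP.2 _ hw hw0
    rw [Q_add Q, ho p₁ hp₁ p₂ hp₂, add_zero] at hQw
    by_cases h10 : p₁ = 0
    · right
      rw [h10, zero_add]
      exact hp₂
    by_cases h2' : p₂ = 0
    · left
      rw [h2', add_zero]
      exact hp₁
    exfalso
    apply hQw
    rw [ne_zero_eq_one hq (h1.2 p₁ hp₁ h10), ne_zero_eq_one hq (h2.2 p₂ hp₂ h2'),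
      one_add_one_eq_two, h20]
  have hle : P ≤ P₁ ∨ P ≤ P₂ := by
    by_contra hcon
    push Not at hcon
    obtain ⟨hc1, hc2⟩ := hcon
    obtain ⟨u, huP, hu1⟩ := SetLike.not_le_iff_exists.1 hc1
    obtain ⟨v, hvP, hv2⟩ := SetLike.not_le_iff_exists.1 hc2
    have hu2 : u ∈ P₂ := (hmem u huP).resolve_left hu1
    have hv1 : v ∈ P₁ := (hmem v hvP).resolve_right hv2
    rcases hmem (u + v) (P.add_mem huP hvP) with h | h
    · exact hu1 ((P₁.add_mem_iff_left hv1).1 h)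
    · exact hv2 ((P₂.add_mem_iff_right hu2).1 h)
  rcases hle with h | h
  · left
    exact Submodule.eq_of_le_of_finrank_eq h (by rw [hP.1, h1.1])
  · right
    exact Submodule.eq_of_le_of_finrank_eq h (by rw [hP.1, h2.1])

end YQ2aux

open YQ2aux in
/-- YQ2a -/
theorem four_plus_two_local [Fintype F] (hq : Fintype.card F = 2)
    (hQ : IsNondegenerateQuadraticForm Q) (X : Submodule F (ι → F))
    (hnd : IsNondegenerateOn (QuadraticMap.polar Q) X) (hdim : Module.finrank F X = 4)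
    (hplus : IsPlusTypeOn Q X) :
    ∃ P₁ P₂ : Submodule F (ι → F), P₁ ≤ X ∧ P₂ ≤ X ∧ AnisoPlane Q P₁ ∧ AnisoPlane Q P₂ ∧
      AreOrthogonalFor (QuadraticMap.polar Q) P₁ P₂ ∧
      ∀ P : Submodule F (ι → F), P ≤ X → AnisoPlane Q P → P = P₁ ∨ P = P₂ := by
  have hb := hQ.polar_bilinear
  have h2 := two_eq_zero' hq
  obtain ⟨e₁, f₁, e₂, f₂, he₁, hf₁, he₂, hf₂, q1, q2, q3, q4, b1, b2, b3, b4, b5, b6⟩ :=
    exists_hyp hq hQ X hnd hdim hplus
  have c1 : QuadraticMap.polar Q f₁ e₁ = 1 := by rw [QuadraticMap.polar_comm]; exact b1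
  have c2 : QuadraticMap.polar Q f₂ e₂ = 1 := by rw [QuadraticMap.polar_comm]; exact b2
  have c3 : QuadraticMap.polar Q e₂ e₁ = 0 := by rw [QuadraticMap.polar_comm]; exact b3
  have c4 : QuadraticMap.polar Q f₂ e₁ = 0 := by rw [QuadraticMap.polar_comm]; exact b4
  have c5 : QuadraticMap.polar Q f₁ e₂ = 0 := by rw [QuadraticMap.polar_comm]; exact b5
  have c6 : QuadraticMap.polar Q f₂ f₁ = 0 := by rw [QuadraticMap.polar_comm]; exact b6
  have d1 := polar_self hq hQ e₁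
  have d2 := polar_self hq hQ f₁
  have d3 := polar_self hq hQ e₂
  have d4 := polar_self hq hQ f₂
  obtain ⟨t₁, ht₁⟩ : ∃ t₁, t₁ = e₁ + f₁ := ⟨_, rfl⟩
  obtain ⟨t₂, ht₂⟩ : ∃ t₂, t₂ = e₁ + (e₂ + f₂) := ⟨_, rfl⟩
  obtain ⟨s₁, hs₁⟩ : ∃ s₁, s₁ = e₂ + f₂ := ⟨_, rfl⟩
  obtain ⟨s₂, hs₂⟩ : ∃ s₂, s₂ = e₂ + (e₁ + f₁) := ⟨_, rfl⟩
  have hQt1 : Q t₁ = 1 := by
    rw [ht₁]
    simp only [Q_add Q, hb.add_left, hb.add_right, q1, q2, q3, q4, b1, b2, b3, b4, b5, b6, c1, c2,
      c3, c4, c5, c6, d1, d2, d3, d4]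
    ring
  have hQt2 : Q t₂ = 1 := by
    rw [ht₂]
    simp only [Q_add Q, hb.add_left, hb.add_right, q1, q2, q3, q4, b1, b2, b3, b4, b5, b6, c1, c2,
      c3, c4, c5, c6, d1, d2, d3, d4]
    ring
  have hQs1 : Q s₁ = 1 := by
    rw [hs₁]
    simp only [Q_add Q, hb.add_left, hb.add_right, q1, q2, q3, q4, b1, b2, b3, b4, b5, b6, c1, c2,
      c3, c4, c5, c6, d1, d2, d3, d4]
    ring
  have hQs2 : Q s₂ = 1 := by
    rw [hs₂]
    simp only [Q_add Q, hb.add_left, hb.add_right, q1, q2, q3, q4, b1, b2, b3, b4, b5, b6, c1, c2,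
      c3, c4, c5, c6, d1, d2, d3, d4]
    ring
  have hBt : QuadraticMap.polar Q t₁ t₂ = 1 := by
    rw [ht₁, ht₂]
    simp only [Q_add Q, hb.add_left, hb.add_right, q1, q2, q3, q4, b1, b2, b3, b4, b5, b6, c1, c2,
      c3, c4, c5, c6, d1, d2, d3, d4]
    ring
  have hBs : QuadraticMap.polar Q s₁ s₂ = 1 := by
    rw [hs₁, hs₂]
    simp only [Q_add Q, hb.add_left, hb.add_right, q1, q2, q3, q4, b1, b2, b3, b4, b5, b6, c1, c2,
      c3, c4, c5, c6, d1, d2, d3, d4]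
    ring
  have h11 : QuadraticMap.polar Q t₁ s₁ = 0 := by
    rw [ht₁, hs₁]
    simp only [Q_add Q, hb.add_left, hb.add_right, q1, q2, q3, q4, b1, b2, b3, b4, b5, b6, c1, c2,
      c3, c4, c5, c6, d1, d2, d3, d4]
    ring
  have h12 : QuadraticMap.polar Q t₁ s₂ = 0 := by
    rw [ht₁, hs₂]
    simp only [Q_add Q, hb.add_left, hb.add_right, q1, q2, q3, q4, b1, b2, b3, b4, b5, b6, c1, c2,
      c3, c4, c5, c6, d1, d2, d3, d4]
    linear_combination h2
  have h21 : QuadraticMap.polar Q t₂ s₁ = 0 := by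
    rw [ht₂, hs₁]
    simp only [Q_add Q, hb.add_left, hb.add_right, q1, q2, q3, q4, b1, b2, b3, b4, b5, b6, c1, c2,
      c3, c4, c5, c6, d1, d2, d3, d4]
    linear_combination h2
  have h22 : QuadraticMap.polar Q t₂ s₂ = 0 := by
    rw [ht₂, hs₂]
    simp only [Q_add Q, hb.add_left, hb.add_right, q1, q2, q3, q4, b1, b2, b3, b4, b5, b6, c1, c2,
      c3, c4, c5, c6, d1, d2, d3, d4]
    linear_combination h2
  have ht₁X : t₁ ∈ X := by rw [ht₁]; exact X.add_mem he₁ hf₁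
  have ht₂X : t₂ ∈ X := by rw [ht₂]; exact X.add_mem he₁ (X.add_mem he₂ hf₂)
  have hs₁X : s₁ ∈ X := by rw [hs₁]; exact X.add_mem he₂ hf₂
  have hs₂X : s₂ ∈ X := by rw [hs₂]; exact X.add_mem he₂ (X.add_mem he₁ hf₁)
  have hP1X : Submodule.span F {t₁, t₂} ≤ X := by
    rw [Submodule.span_le]
    rintro x (rfl | rfl)
    · exact ht₁X
    · exact ht₂X
  have hP2X : Submodule.span F {s₁, s₂} ≤ X := by
    rw [Submodule.span_le]
    rintro x (rfl | rfl)
    · exact hs₁X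
    · exact hs₂X
  have ho := orth_span hQ t₁ t₂ s₁ s₂ h11 h12 h21 h22
  have hdis : Disjoint (Submodule.span F {t₁, t₂}) (Submodule.span F {s₁, s₂}) := by
    rw [Submodule.disjoint_def]
    intro w hw1 hw2
    have e1 := ho t₁ (Submodule.subset_span (by simp)) w hw2
    have e2 := ho t₂ (Submodule.subset_span (by simp)) w hw2
    obtain ⟨a, b, rfl⟩ := Submodule.mem_span_pair.1 hw1
    rw [hb.add_right, hb.smul_right, hb.smul_right, polar_self hq hQ, hBt] at e1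
    rw [hb.add_right, hb.smul_right, hb.smul_right, polar_self hq hQ,
      QuadraticMap.polar_comm Q t₂ t₁, hBt] at e2
    have hb0 : b = 0 := by simpa using e1
    have ha0 : a = 0 := by simpa using e2
    rw [ha0, hb0]
    simp
  have hA1 := aniso_span hq hQ t₁ t₂ hQt1 hQt2 hBt
  have hA2 := aniso_span hq hQ s₁ s₂ hQs1 hQs2 hBs
  exact ⟨_, _, hP1X, hP2X, hA1, hA2, ho,
    fun P hPX hP => of_two_planes hq hQ X hdim _ _ hP1X hP2X hA1 hA2 ho hdis P hPX hP⟩

end Cfsg.Agent.Lib.Helper35.OE
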